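/-
Elements with `2 × 2` blocks of equal determinant are similarities of a symplectic form.

* `exists_conj_sim_of_blocks` : if `x R = R (blockDiagonal M)` with all `2 × 2` blocks `M i` of the same determinant
  `c ≠ 0`, then `x` is conjugate into the similarity group of any symplectic form.
* `exists_conj_sim_of_basis` : the same with a basis.
* `exists_basis_of_sq_zero` : normal form of `N` with `N ^ 2 = 0`.
* `exists_pairing` : a function with even fibres can be paired off.
-/
import Mathlib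
import Cfsg.Prelude.Def_GeometricClasses
import Cfsg.Agent.H953.Sympl
import Cfsg.Agent.H953.Basic
import Cfsg.Agent.H953.Diag
import Cfsg.Agent.H953.Mult

set_option autoImplicit false

namespace Cfsg.Agent.H953

open Cfsg.Geo Polynomial

section Blocks

variable {F : Type*} [Field F]

/-- `Fin m ⊕ Fin m ≃ Fin 2 × κ`. -/
def sumEquivProd {κ : Type*} {m : ℕ} (k : Fin m ≃ κ) : Fin m ⊕ Fin m ≃ Fin 2 × κ where
  toFun := Sum.elim (fun i => (0, k i)) (fun i => (1, k i))
  invFun a := if a.1 = 0 then Sum.inl (k.symm a.2) else Sum.inr (k.symm a.2)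
  left_inv a := by
    rcases a with i | i <;> simp
  right_inv a := by
    obtain ⟨l, i⟩ := a
    fin_cases l <;> simp

theorem stdForm_blocks {κ : Type*} [Fintype κ] [DecidableEq κ] {m : ℕ} (k : Fin m ≃ κ)
    (M : κ → Matrix (Fin 2) (Fin 2) F) (c : F) (hM : ∀ i, (M i).det = c) (u v : Fin m ⊕ Fin m → F) :
    stdForm m F (((Matrix.blockDiagonal M).submatrix (sumEquivProd k) (sumEquivProd k)).mulVec u)
      (((Matrix.blockDiagonal M).submatrix (sumEquivProd k) (sumEquivProd k)).mulVec v) = c * stdForm m F u v := by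
  have h1 : ∀ (w : Fin m ⊕ Fin m → F) (i : Fin m),
      (((Matrix.blockDiagonal M).submatrix (sumEquivProd k) (sumEquivProd k)).mulVec w) (Sum.inl i) =
        M (k i) 0 0 * w (Sum.inl i) + M (k i) 0 1 * w (Sum.inr i) := by
    intro w i
    rw [Matrix.mulVec, dotProduct, Fintype.sum_sum_type]
    simp [sumEquivProd, Matrix.blockDiagonal_apply]
  have h2 : ∀ (w : Fin m ⊕ Fin m → F) (i : Fin m),
      (((Matrix.blockDiagonal M).submatrix (sumEquivProd k) (sumEquivProd k)).mulVec w) (Sum.inr i) =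
        M (k i) 1 0 * w (Sum.inl i) + M (k i) 1 1 * w (Sum.inr i) := by
    intro w i
    rw [Matrix.mulVec, dotProduct, Fintype.sum_sum_type]
    simp [sumEquivProd, Matrix.blockDiagonal_apply]
  unfold stdForm
  rw [Finset.mul_sum]
  refine Finset.sum_congr rfl fun i _ => ?_
  rw [h1, h2, h1, h2, ← hM (k i), Matrix.det_fin_two]
  ring

theorem exists_conj_sim_of_blocks {n : ℕ} {κ : Type*} [Fintype κ] [DecidableEq κ]
    {f : (Fin n → F) → (Fin n → F) → F} (hf : IsSymplecticForm f)
    (x : Matrix.SpecialLinearGroup (Fin n) F) (R : GL (Fin n) F) (e : Fin 2 × κ ≃ Fin n)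
    (M : κ → Matrix (Fin 2) (Fin 2) F) (c : F) (hc : c ≠ 0) (hM : ∀ i, (M i).det = c)
    (h : (x : Matrix (Fin n) (Fin n) F) * (R : Matrix (Fin n) (Fin n) F) =
      (R : Matrix (Fin n) (Fin n) F) * Matrix.reindex e e (Matrix.blockDiagonal M)) :
    ∃ Q : GL (Fin n) F, Q⁻¹ * Matrix.SpecialLinearGroup.toGL x * Q ∈ similarityGroup f := by
  obtain ⟨m, e', S, hS⟩ := exists_std hf
  have hcard : Fintype.card (Fin m) = Fintype.card κ := by
    have h1 := Fintype.card_congr e
    have h2 := Fintype.card_congr e'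
    rw [Fintype.card_prod, Fintype.card_fin, Fintype.card_fin] at h1
    rw [Fintype.card_sum, Fintype.card_fin, Fintype.card_fin] at h2
    rw [Fintype.card_fin]
    omega
  let k : Fin m ≃ κ := Fintype.equivOfCardEq hcard
  let σ : Fin n ≃ Fin n := e'.symm.trans ((sumEquivProd k).trans e)
  have hu : IsUnit ((R : Matrix (Fin n) (Fin n) F).submatrix id σ) := by
    have h1 : IsUnit ((R : Matrix (Fin n) (Fin n) F).submatrix (Equiv.refl _) σ) :=
      (Matrix.isUnit_submatrix_equiv _ _).mpr R.isUnit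
    exact h1
  obtain ⟨R', hR'⟩ := hu
  let Z := (Matrix.blockDiagonal M).submatrix (sumEquivProd k) (sumEquivProd k)
  have hY : (x : Matrix (Fin n) (Fin n) F) * (R' : Matrix (Fin n) (Fin n) F) =
      (R' : Matrix (Fin n) (Fin n) F) * Matrix.reindexAlgEquiv F F e' Z := by
    have h1 : ((x : Matrix (Fin n) (Fin n) F) * (R : Matrix (Fin n) (Fin n) F)).submatrix id σ =
      ((R : Matrix (Fin n) (Fin n) F) * Matrix.reindex e e (Matrix.blockDiagonal M)).submatrix id σ := by rw [h]
    rw [← Matrix.submatrix_mul_equiv _ _ id (Equiv.refl _) σ, ← Matrix.submatrix_mul_equiv _ _ id σ σ] at h1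
    rw [hR']
    have h2 : (Matrix.reindex e e (Matrix.blockDiagonal M)).submatrix σ σ = Matrix.reindexAlgEquiv F F e' Z := by
      ext i j
      simp [σ, Z]
    rw [h2] at h1
    exact h1
  let Y : GL (Fin n) F := R'⁻¹ * Matrix.SpecialLinearGroup.toGL x * R'
  have hYm : (Y : Matrix (Fin n) (Fin n) F) = Matrix.reindexAlgEquiv F F e' Z := by
    change ((R'⁻¹ : GL (Fin n) F) : Matrix (Fin n) (Fin n) F) * (x : Matrix (Fin n) (Fin n) F) * (R' : Matrix (Fin n) (Fin n) F) = _
    rw [mul_assoc, hY, ← mul_assoc, ← Units.val_mul, inv_mul_cancel, Units.val_one, one_mul]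
  have hmem := mem_similarity hS Y c hc (by
    intro u v
    rw [hYm, reindex_mulVec_comp, reindex_mulVec_comp, stdForm_blocks k M c hM])
  refine ⟨R' * S⁻¹, ?_⟩
  have h3 : (R' * S⁻¹)⁻¹ * Matrix.SpecialLinearGroup.toGL x * (R' * S⁻¹) = S * Y * S⁻¹ := by
    simp only [Y, mul_inv_rev, inv_inv, mul_assoc]
  rw [h3]
  exact hmem

theorem exists_conj_sim_of_basis {n : ℕ} {κ : Type*} [Fintype κ] [DecidableEq κ]
    {f : (Fin n → F) → (Fin n → F) → F} (hf : IsSymplecticForm f)
    (x : Matrix.SpecialLinearGroup (Fin n) F) (b : Module.Basis (Fin 2 × κ) F (Fin n → F))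
    (M : κ → Matrix (Fin 2) (Fin 2) F) (c : F) (hc : c ≠ 0) (hM : ∀ i, (M i).det = c)
    (h : ∀ l i, (x : Matrix (Fin n) (Fin n) F).mulVec (b (l, i)) = M i 0 l • b (0, i) + M i 1 l • b (1, i)) :
    ∃ Q : GL (Fin n) F, Q⁻¹ * Matrix.SpecialLinearGroup.toGL x * Q ∈ similarityGroup f := by
  have hcard : Fintype.card (Fin 2 × κ) = Fintype.card (Fin n) := by
    rw [← Module.finrank_eq_card_basis b, Module.finrank_fintype_fun_eq_card]
  let e : Fin 2 × κ ≃ Fin n := Fintype.equivOfCardEq hcard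
  let b' := b.reindex e
  let St := Pi.basisFun F (Fin n)
  let R : GL (Fin n) F := ⟨St.toMatrix b', b'.toMatrix St, by simp, by simp⟩
  refine exists_conj_sim_of_blocks hf x R e M c hc hM ?_
  have hR : ∀ i j, (R : Matrix (Fin n) (Fin n) F) i j = b (e.symm j) i := by
    intro i j
    change St.toMatrix b' i j = _
    simp [St, b', Module.Basis.toMatrix_apply]
  ext i j
  obtain ⟨⟨l, t⟩, rfl⟩ := e.surjective j
  have h1 : ((x : Matrix (Fin n) (Fin n) F) * (R : Matrix (Fin n) (Fin n) F)) i (e (l, t)) =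
      ((x : Matrix (Fin n) (Fin n) F).mulVec (b (l, t))) i := by
    rw [Matrix.mul_apply, Matrix.mulVec, dotProduct]
    refine Finset.sum_congr rfl fun j _ => ?_
    rw [hR, Equiv.symm_apply_apply]
  rw [h1, h, Matrix.mul_apply, ← Equiv.sum_comp e, Fintype.sum_prod_type]
  simp [hR, Matrix.blockDiagonal_apply, Fin.sum_univ_two, mul_comm]

end Blocks

section SqZero

variable {K : Type*} [Field K] {V : Type*} [AddCommGroup V] [Module K V] [FiniteDimensional K V]

/-- A normal form of `N` with `N ^ 2 = 0`. -/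
theorem exists_basis_of_sq_zero (N : V →ₗ[K] V) (h : ∀ v, N (N v) = 0) :
    ∃ (m c : ℕ) (b : Module.Basis ((Fin m ⊕ Fin m) ⊕ Fin c) K V),
      (∀ i, N (b (Sum.inl (Sum.inl i))) = 0 ∧ N (b (Sum.inl (Sum.inr i))) = b (Sum.inl (Sum.inl i))) ∧
      ∀ i, N (b (Sum.inr i)) = 0 := by
  classical
  have hRK : LinearMap.range N ≤ LinearMap.ker N := by
    rintro _ ⟨v, rfl⟩
    exact h v
  obtain ⟨U, hU⟩ := Submodule.exists_isCompl (LinearMap.ker N)
  obtain ⟨C', hC'⟩ := Submodule.exists_isCompl (LinearMap.range N)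
  set C := C' ⊓ LinearMap.ker N with hC
  have hsup : LinearMap.range N ⊔ C = LinearMap.ker N := by
    rw [hC, ← sup_inf_assoc_of_le _ hRK, hC'.sup_eq_top, top_inf_eq]
  set W := LinearMap.range N ⊔ U with hWdef
  have hW : ∀ v ∈ W, N v ∈ W := by
    intro v _
    exact Submodule.mem_sup_left ⟨v, rfl⟩
  have hWC : IsCompl W C := by
    rw [isCompl_iff]
    constructor
    · rw [Submodule.disjoint_def]
      intro v hv hvC
      obtain ⟨a, ha, u, hu, rfl⟩ := Submodule.mem_sup.mp hv
      have h1 : N (a + u) = 0 := hvC.2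
      have h2 : N a = 0 := hRK ha
      rw [map_add, h2, zero_add] at h1
      have h3 : u = 0 := by
        have : u ∈ LinearMap.ker N ⊓ U := ⟨h1, hu⟩
        rw [hU.inf_eq_bot] at this
        exact this
      subst h3
      rw [add_zero] at hvC ⊢
      have : a ∈ LinearMap.range N ⊓ C' := ⟨ha, hvC.1⟩
      rw [hC'.inf_eq_bot] at this
      exact this
    · rw [codisjoint_iff, hWdef, sup_assoc, sup_comm U, ← sup_assoc, hsup, hU.sup_eq_top]
  have hker : LinearMap.ker (N.restrict hW) = LinearMap.range (N.restrict hW) := by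
    ext ⟨v, hv⟩
    constructor
    · intro h0
      have h1 : N v = 0 := congrArg Subtype.val h0
      obtain ⟨a, ha, u, hu, rfl⟩ := Submodule.mem_sup.mp hv
      have h2 : N a = 0 := hRK ha
      rw [map_add, h2, zero_add] at h1
      have h3 : u = 0 := by
        have : u ∈ LinearMap.ker N ⊓ U := ⟨h1, hu⟩
        rw [hU.inf_eq_bot] at this
        exact this
      subst h3
      obtain ⟨w, rfl⟩ := ha
      have hw : w ∈ LinearMap.ker N ⊔ U := by rw [hU.sup_eq_top]; trivial
      obtain ⟨k, hk, u, hu, rfl⟩ := Submodule.mem_sup.mp hw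
      refine ⟨⟨u, Submodule.mem_sup_right hu⟩, Subtype.ext ?_⟩
      have hk' : N k = 0 := hk
      simp [hk']
    · rintro ⟨w, hw⟩
      rw [← hw]
      exact Subtype.ext (h w.1)
  obtain ⟨m, bW, hbW⟩ := exists_basis_of_ker_eq_range _ hker
  let bC := Module.finBasis K C
  let b := (bW.prod bC).map (Submodule.prodEquivOfIsCompl _ _ hWC)
  have h1 : ∀ a, b (Sum.inl a) = (bW a : V) := by
    intro a; simp [b]
  have h2 : ∀ a, b (Sum.inr a) = (bC a : V) := by
    intro a; simp [b]
  refine ⟨m, _, b, ?_, ?_⟩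
  · intro i
    rw [h1, h1]
    exact ⟨congrArg Subtype.val (hbW i).1, congrArg Subtype.val (hbW i).2⟩
  · intro i
    rw [h2]
    exact (bC i).2.2

end SqZero

/-- A function with even fibres can be paired off. -/
theorem exists_pairing {α β : Type*} [Fintype α] [Fintype β] [DecidableEq β] (a : α → β)
    (h : ∀ y, Even (Fintype.card {x // a x = y})) :
    ∃ (k : β → ℕ) (e : Fin 2 × (Σ y, Fin (k y)) ≃ α), ∀ i, a (e (0, i)) = a (e (1, i)) := by
  choose k hk using h
  have e1 : ∀ y, Nonempty (Fin 2 × Fin (k y) ≃ {x // a x = y}) := by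
    intro y
    refine ⟨Fintype.equivOfCardEq ?_⟩
    rw [Fintype.card_prod, Fintype.card_fin, Fintype.card_fin, hk]
    ring
  have e1 := fun y => Classical.choice (e1 y)
  let e2 : Fin 2 × (Σ y, Fin (k y)) ≃ Σ y, Fin 2 × Fin (k y) :=
    { toFun := fun a => ⟨a.2.1, (a.1, a.2.2)⟩
      invFun := fun a => (a.2.1, ⟨a.1, a.2.2⟩)
      left_inv := fun _ => rfl
      right_inv := fun _ => rfl }
  refine ⟨k, e2.trans ((Equiv.sigmaCongrRight e1).trans (Equiv.sigmaFiberEquiv a)), ?_⟩
  rintro ⟨y, i⟩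
  have h1 : ∀ l, a ((e2.trans ((Equiv.sigmaCongrRight e1).trans (Equiv.sigmaFiberEquiv a))) (l, ⟨y, i⟩)) = y := by
    intro l
    exact (e1 y (l, i)).2
  rw [h1, h1]

end Cfsg.Agent.H953
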