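/-
Diagonal matrices whose eigenvalues come in pairs `ζ, ζ⁻¹` exchanged by `a ↦ a ^ q₀` are similar to matrices over
the subfield with `q₀` elements.
-/
import Mathlib
import Cfsg.Agent.H953.Cent
import Cfsg.Agent.H953.Basic

set_option autoImplicit false

namespace Cfsg.Agent.H953

open Polynomial

universe u

set_option synthInstance.maxSize 2000 in
/-- Five elements of `ZMod 5` with sum zero are symmetric about one of them. -/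
theorem five_aux : ∀ t0 t1 t2 t3 t4 : ZMod 5, t0 + t1 + t2 + t3 + t4 = 0 →
      (t1 + t2 = 2 * t0 ∧ t3 + t4 = 2 * t0) ∨
      (t1 + t3 = 2 * t0 ∧ t2 + t4 = 2 * t0) ∨
      (t1 + t4 = 2 * t0 ∧ t2 + t3 = 2 * t0) ∨
      (t0 + t2 = 2 * t1 ∧ t3 + t4 = 2 * t1) ∨
      (t0 + t3 = 2 * t1 ∧ t2 + t4 = 2 * t1) ∨
      (t0 + t4 = 2 * t1 ∧ t2 + t3 = 2 * t1) ∨
      (t0 + t1 = 2 * t2 ∧ t3 + t4 = 2 * t2) ∨
      (t0 + t3 = 2 * t2 ∧ t1 + t4 = 2 * t2) ∨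
      (t0 + t4 = 2 * t2 ∧ t1 + t3 = 2 * t2) ∨
      (t0 + t1 = 2 * t3 ∧ t2 + t4 = 2 * t3) ∨
      (t0 + t2 = 2 * t3 ∧ t1 + t4 = 2 * t3) ∨
      (t0 + t4 = 2 * t3 ∧ t1 + t2 = 2 * t3) ∨
      (t0 + t1 = 2 * t4 ∧ t2 + t3 = 2 * t4) ∨
      (t0 + t2 = 2 * t4 ∧ t1 + t3 = 2 * t4) ∨
      (t0 + t3 = 2 * t4 ∧ t1 + t2 = 2 * t4) := by
  decide +kernel

theorem five_perm (t : Fin 5 → ZMod 5) (h : ∑ i, t i = 0) :
    ∃ σ : Equiv.Perm (Fin 5), t (σ 1) + t (σ 2) = 2 * t (σ 0) ∧ t (σ 3) + t (σ 4) = 2 * t (σ 0) := by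
  rw [Fin.sum_univ_five] at h
  rcases five_aux (t 0) (t 1) (t 2) (t 3) (t 4) h with h | h | h | h | h | h | h | h | h | h | h | h | h | h | h
  · exact ⟨Equiv.ofBijective ![0, 1, 2, 3, 4] (by decide), h⟩
  · exact ⟨Equiv.ofBijective ![0, 1, 3, 2, 4] (by decide), h⟩
  · exact ⟨Equiv.ofBijective ![0, 1, 4, 2, 3] (by decide), h⟩
  · exact ⟨Equiv.ofBijective ![1, 0, 2, 3, 4] (by decide), h⟩
  · exact ⟨Equiv.ofBijective ![1, 0, 3, 2, 4] (by decide), h⟩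
  · exact ⟨Equiv.ofBijective ![1, 0, 4, 2, 3] (by decide), h⟩
  · exact ⟨Equiv.ofBijective ![2, 0, 1, 3, 4] (by decide), h⟩
  · exact ⟨Equiv.ofBijective ![2, 0, 3, 1, 4] (by decide), h⟩
  · exact ⟨Equiv.ofBijective ![2, 0, 4, 1, 3] (by decide), h⟩
  · exact ⟨Equiv.ofBijective ![3, 0, 1, 2, 4] (by decide), h⟩
  · exact ⟨Equiv.ofBijective ![3, 0, 2, 1, 4] (by decide), h⟩
  · exact ⟨Equiv.ofBijective ![3, 0, 4, 1, 2] (by decide), h⟩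
  · exact ⟨Equiv.ofBijective ![4, 0, 1, 2, 3] (by decide), h⟩
  · exact ⟨Equiv.ofBijective ![4, 0, 2, 1, 3] (by decide), h⟩
  · exact ⟨Equiv.ofBijective ![4, 0, 3, 1, 2] (by decide), h⟩

section Pairs

variable {F : Type u} [Field F] [Fintype F]

/-- `diag(ζ, ζ⁻¹)` is similar to a matrix over `F₀`. -/
theorem pair_two (F₀ : Subfield F) {q₀ : ℕ} (hF₀ : Nat.card F₀ = q₀) (ζ : F) (h0 : ζ ≠ 0)
    (hadd : ∀ a b : F, (a + b) ^ q₀ = a ^ q₀ + b ^ q₀)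
    (hζ : ζ ^ q₀ = ζ⁻¹) :
    ∃ (V : Matrix (Fin 2) (Fin 2) F) (C : Matrix (Fin 2) (Fin 2) F₀), V.det ≠ 0 ∧
      Matrix.diagonal ![ζ, ζ⁻¹] * V = V * C.map F₀.subtype := by
  by_cases h : ζ = ζ⁻¹
  · have hmem : ζ ∈ F₀ := by
      rw [mem_subfield_iff_pow F₀ hF₀, hζ]; exact h.symm
    refine ⟨1, Matrix.diagonal ![⟨ζ, hmem⟩, ⟨ζ, hmem⟩], by rw [Matrix.det_one]; exact one_ne_zero, ?_⟩
    rw [mul_one, one_mul, Matrix.diagonal_map (map_zero _)]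
    congr 1
    funext i
    fin_cases i
    · simp
    · simp [← h]
  · have hτ : ζ + ζ⁻¹ ∈ F₀ := by
      rw [mem_subfield_iff_pow F₀ hF₀, hadd, inv_pow, hζ, inv_inv, add_comm]
    refine ⟨!![1, ζ; 1, ζ⁻¹], !![0, -1; 1, ⟨ζ + ζ⁻¹, hτ⟩], ?_, ?_⟩
    · rw [Matrix.det_fin_two_of, one_mul, mul_one]
      intro h1
      exact h (sub_eq_zero.mp h1).symm
    · ext i j
      fin_cases i <;> fin_cases j <;>
        simp [Matrix.mul_apply, Fin.sum_univ_two, Matrix.diagonal_apply]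
      · rw [mul_add, mul_inv_cancel₀ h0]; ring
      · rw [mul_add, inv_mul_cancel₀ h0]; ring

/-- `diag(1, ζ_1, ζ_1⁻¹, ..., ζ_m, ζ_m⁻¹)` is similar to a matrix over `F₀`. -/
theorem pair_many (F₀ : Subfield F) {q₀ : ℕ} (hF₀ : Nat.card F₀ = q₀) {m : ℕ} (ζ : Fin m → F) (h0 : ∀ i, ζ i ≠ 0)
    (hadd : ∀ a b : F, (a + b) ^ q₀ = a ^ q₀ + b ^ q₀)
    (hζ : ∀ i, ζ i ^ q₀ = (ζ i)⁻¹) :
    ∃ (V : Matrix (Fin 1 ⊕ (Fin 2 × Fin m)) (Fin 1 ⊕ (Fin 2 × Fin m)) F)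
      (C : Matrix (Fin 1 ⊕ (Fin 2 × Fin m)) (Fin 1 ⊕ (Fin 2 × Fin m)) F₀), V.det ≠ 0 ∧
      Matrix.diagonal (Sum.elim (fun _ => (1 : F)) (fun a => ![ζ a.2, (ζ a.2)⁻¹] a.1)) * V = V * C.map F₀.subtype := by
  choose V C hV hVC using fun i => pair_two F₀ hF₀ (ζ i) (h0 i) hadd (hζ i)
  refine ⟨Matrix.fromBlocks (1 : Matrix (Fin 1) (Fin 1) F) 0 0 (Matrix.blockDiagonal V),
    Matrix.fromBlocks (1 : Matrix (Fin 1) (Fin 1) F₀) 0 0 (Matrix.blockDiagonal C), ?_, ?_⟩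
  · rw [Matrix.det_fromBlocks_zero₂₁, Matrix.det_one, one_mul, Matrix.det_blockDiagonal]
    exact Finset.prod_ne_zero_iff.mpr fun i _ => hV i
  · have h1 : Matrix.diagonal (Sum.elim (fun _ => (1 : F)) (fun a : Fin 2 × Fin m => ![ζ a.2, (ζ a.2)⁻¹] a.1)) =
        Matrix.fromBlocks (1 : Matrix (Fin 1) (Fin 1) F) 0 0 (Matrix.blockDiagonal fun i => Matrix.diagonal ![ζ i, (ζ i)⁻¹]) := by
      rw [Matrix.blockDiagonal_diagonal, ← Matrix.diagonal_one, Matrix.fromBlocks_diagonal]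
    rw [h1, Matrix.fromBlocks_map, Matrix.fromBlocks_multiply, Matrix.fromBlocks_multiply,
      ← Matrix.blockDiagonal_mul]
    have h2 : (Matrix.blockDiagonal C).map F₀.subtype = Matrix.blockDiagonal (fun i => (C i).map F₀.subtype) :=
      Matrix.blockDiagonal_map C _ (map_zero _)
    rw [h2, ← Matrix.blockDiagonal_mul]
    have h3 : (fun i => Matrix.diagonal ![ζ i, (ζ i)⁻¹] * V i) = fun i => V i * (C i).map F₀.subtype := funext hVC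
    simp [h3]

end Pairs

end Cfsg.Agent.H953
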