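/-
Conjugacy into subfield groups.
-/
import Mathlib
import Cfsg.Prelude.Def_GeometricClasses
import Cfsg.Agent.H953.Cent
import Cfsg.Agent.H953.Basic

set_option autoImplicit false

namespace Cfsg.Agent.H953

open Polynomial

universe u

variable {F : Type u} [Field F] {n : ℕ}

theorem det_sl_ne_zero (x : Matrix.SpecialLinearGroup (Fin n) F) : (x : Matrix (Fin n) (Fin n) F).det ≠ 0 := by
  rw [x.det_coe]; exact one_ne_zero

/-- If `x P = P (w y)` with `y` over `F₀` then `P⁻¹ x P` lies in the subfield group. -/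
theorem mem_subfield_of_eq [NeZero n] (F₀ : Subfield F) (x : Matrix.SpecialLinearGroup (Fin n) F) (P : GL (Fin n) F) (w : F)
    (y : Matrix (Fin n) (Fin n) F₀)
    (h : (x : Matrix (Fin n) (Fin n) F) * (P : Matrix (Fin n) (Fin n) F) =
      (P : Matrix (Fin n) (Fin n) F) * (w • y.map F₀.subtype)) :
    P⁻¹ * (Matrix.SpecialLinearGroup.toGL x) * P ∈ Cfsg.Geo.subfieldSubgroup F₀ 1 := by
  have hPd : (P : Matrix (Fin n) (Fin n) F).det ≠ 0 := (Matrix.isUnits_det_units P).ne_zero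
  have hd := congrArg Matrix.det h
  rw [Matrix.det_mul, Matrix.det_mul, Matrix.det_smul, x.det_coe, one_mul] at hd
  have hd2 : w ^ Fintype.card (Fin n) * (y.map F₀.subtype).det = 1 := by
    have := mul_left_cancel₀ hPd ((mul_one _).trans hd)
    exact this.symm
  have hw : w ≠ 0 := by
    rintro rfl
    rw [zero_pow Fintype.card_ne_zero, zero_mul] at hd2
    exact zero_ne_one hd2
  have hy : y.det ≠ 0 := by
    intro hy
    have : (y.map F₀.subtype).det = F₀.subtype y.det := (RingHom.map_det F₀.subtype y).symm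
    rw [this, hy, map_zero, mul_zero] at hd2
    exact zero_ne_one hd2
  rw [mem_subfield_iff]
  refine ⟨Matrix.GeneralLinearGroup.mkOfDetNeZero y hy, Units.mk0 w hw, ?_⟩
  have h1 : ((P⁻¹ * (Matrix.SpecialLinearGroup.toGL x) * P : GL (Fin n) F) : Matrix (Fin n) (Fin n) F) =
      ((P⁻¹ : GL (Fin n) F) : Matrix (Fin n) (Fin n) F) * ((x : Matrix (Fin n) (Fin n) F) * (P : Matrix (Fin n) (Fin n) F)) := by
    rw [Units.val_mul, Units.val_mul, mul_assoc]
    rfl
  rw [h1, h, ← mul_assoc, ← Units.val_mul, inv_mul_cancel, Units.val_one, one_mul]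
  rfl

/-- Conversely. -/
theorem eq_of_mem_subfield (F₀ : Subfield F) (x P : Matrix.SpecialLinearGroup (Fin n) F)
    (h : P⁻¹ * x * P ∈ (Cfsg.Geo.subfieldSubgroup F₀ 1).comap
      (Matrix.SpecialLinearGroup.toGL : Matrix.SpecialLinearGroup (Fin n) F →* GL (Fin n) F)) :
    ∃ (y : GL (Fin n) F₀) (c : F), c ≠ 0 ∧ (x : Matrix (Fin n) (Fin n) F) * (P : Matrix (Fin n) (Fin n) F) =
      (P : Matrix (Fin n) (Fin n) F) * (c • (y : Matrix (Fin n) (Fin n) F₀).map F₀.subtype) := by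
  rw [Subgroup.mem_comap, mem_subfield_iff] at h
  obtain ⟨y, c, hyc⟩ := h
  refine ⟨y, c, c.ne_zero, ?_⟩
  rw [← hyc]
  change (x : Matrix (Fin n) (Fin n) F) * (P : Matrix (Fin n) (Fin n) F) = (P : Matrix (Fin n) (Fin n) F) *
    (((P⁻¹ * x * P : Matrix.SpecialLinearGroup (Fin n) F)) : Matrix (Fin n) (Fin n) F)
  rw [← Matrix.SpecialLinearGroup.coe_mul, ← Matrix.SpecialLinearGroup.coe_mul]
  have : P * (P⁻¹ * x * P) = x * P := by group
  rw [this]

theorem dvd_X_sub_one_pow {g : F[X]} (hg : g.Monic) {m : ℕ} (h : g ∣ (X - 1) ^ m) : ∃ j ≤ m, g = (X - 1) ^ j := by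
  have hp : Prime (X - 1 : F[X]) := by
    have := prime_X_sub_C (1 : F)
    rwa [C_1] at this
  obtain ⟨j, hj, hass⟩ := (dvd_prime_pow hp m).mp h
  refine ⟨j, hj, eq_of_monic_of_associated hg ?_ hass⟩
  have := monic_X_sub_C (1 : F)
  rw [C_1] at this
  exact this.pow j

theorem coeff_X_sub_one_pow_mem (F₀ : Subfield F) (j l : ℕ) : ((X - 1 : F[X]) ^ j).coeff l ∈ F₀ := by
  have : ((X - 1 : F[X]) ^ j) = ((X - 1 : F₀[X]) ^ j).map F₀.subtype := by
    simp [Polynomial.map_pow, Polynomial.map_sub]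
  rw [this, coeff_map]
  exact SetLike.coe_mem _

/-- `x ^ p` scalar in characteristic `p`: `x = w u` with `(u - 1) ^ p = 0`. -/
theorem exists_unipotent {ι : Type*} [Fintype ι] [DecidableEq ι] [Nonempty ι] [Fintype F]
    (p : ℕ) [Fact p.Prime] [CharP F p] (x : Matrix ι ι F) (z : F) (hz : z ≠ 0) (hx : x ^ p = z • (1 : Matrix ι ι F)) :
    ∃ (w : F) (u : Matrix ι ι F), w ≠ 0 ∧ x = w • u ∧ aeval u ((X - 1 : F[X]) ^ p) = 0 ∧ u ^ p = 1 := by
  obtain ⟨w, hw⟩ := exists_pow_char p z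
  have hw0 : w ≠ 0 := by
    rintro rfl
    rw [zero_pow (Fact.out : p.Prime).ne_zero] at hw
    exact hz hw.symm
  have hu : (w⁻¹ • x) ^ p = 1 := by
    rw [_root_.smul_pow, hx, smul_smul, inv_pow, hw, inv_mul_cancel₀ hz, one_smul]
  refine ⟨w, w⁻¹ • x, hw0, by rw [smul_smul, mul_inv_cancel₀ hw0, one_smul], ?_, hu⟩
  rw [map_pow, map_sub, aeval_X, map_one]
  have : ExpChar F p := ExpChar.prime Fact.out
  have h1 : CharP (Matrix ι ι F) p := Matrix.charP p
  rw [sub_pow_char_of_commute p (Commute.one_right _), hu, one_pow, sub_self]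

end Cfsg.Agent.H953
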